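import Cfsg.Agent.Lib.Helper35.Simple2

namespace Cfsg.Agent.Lib.Helper35.ONNOrd.U1

open Cfsg.Agent.Lib.Helper35

set_option maxRecDepth 100000
noncomputable section
def invL : List Nat := [1, 0, 2, 3, 4]
def R : List (List Nat) := [[2, 3, 2, 3, 2, 3],
  [2, 4, 2, 4],
  [3, 4, 3, 4, 3, 4],
  [0, 0, 0],
  [0, 2, 0, 2],
  [1, 2, 1, 2],
  [0, 3, 0, 3],
  [1, 3, 1, 3],
  [0, 4, 0, 4],
  [1, 4, 1, 4]]
def S : List (List Nat) := [[2],
  [3],
  [4]]
noncomputable def tA0 : Nat := 0x4ccc0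
noncomputable def tJ0 : Nat := 0x10
noncomputable def tA1 : Nat := 0x724e0
noncomputable def tJ1 : Nat := 0x2100
noncomputable def tA2 : Nat := 0x74ca0
noncomputable def tJ2 : Nat := 0x1200
noncomputable def tA3 : Nat := 0x74ca0
noncomputable def tJ3 : Nat := 0x1200
noncomputable def tA4 : Nat := 0x74ca0
noncomputable def tJ4 : Nat := 0x1200
noncomputable def tA5 : Nat := 0x0
noncomputable def tJ5 : Nat := 0x0
noncomputable def tP : Nat := 0x4a000
def par : Par := ⟨5, 2, 31, 3, 35, 32⟩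
def tabs : Nat → Nat
  | 0 => tA0
  | 1 => tA1
  | 2 => tA2
  | 3 => tA3
  | 4 => tA4
  | 5 => tA5
  | _ => 0
def pe (u : Nat) : Nat := Nat.land (Nat.shiftRight tP (Nat.mul u 5)) 31
def je0 (v : Nat) : Nat := Nat.land (Nat.shiftRight tJ0 (Nat.mul v 4)) 15
def stp0 (off v : Nat) : Nat := Nat.land (Nat.add (Nat.land (Nat.shiftRight tA0 (Nat.mul v 5)) 31) off) 35
theorem stp0_eq : ∀ off v, stp0 off v = step par (tabs 0) off v := fun _ _ => rfl
attribute [irreducible] stp0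
def je1 (v : Nat) : Nat := Nat.land (Nat.shiftRight tJ1 (Nat.mul v 4)) 15
def stp1 (off v : Nat) : Nat := Nat.land (Nat.add (Nat.land (Nat.shiftRight tA1 (Nat.mul v 5)) 31) off) 35
theorem stp1_eq : ∀ off v, stp1 off v = step par (tabs 1) off v := fun _ _ => rfl
attribute [irreducible] stp1
def je2 (v : Nat) : Nat := Nat.land (Nat.shiftRight tJ2 (Nat.mul v 4)) 15
def stp2 (off v : Nat) : Nat := Nat.land (Nat.add (Nat.land (Nat.shiftRight tA2 (Nat.mul v 5)) 31) off) 35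
theorem stp2_eq : ∀ off v, stp2 off v = step par (tabs 2) off v := fun _ _ => rfl
attribute [irreducible] stp2
def je3 (v : Nat) : Nat := Nat.land (Nat.shiftRight tJ3 (Nat.mul v 4)) 15
def stp3 (off v : Nat) : Nat := Nat.land (Nat.add (Nat.land (Nat.shiftRight tA3 (Nat.mul v 5)) 31) off) 35
theorem stp3_eq : ∀ off v, stp3 off v = step par (tabs 3) off v := fun _ _ => rfl
attribute [irreducible] stp3
def je4 (v : Nat) : Nat := Nat.land (Nat.shiftRight tJ4 (Nat.mul v 4)) 15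
def stp4 (off v : Nat) : Nat := Nat.land (Nat.add (Nat.land (Nat.shiftRight tA4 (Nat.mul v 5)) 31) off) 35
theorem stp4_eq : ∀ off v, stp4 off v = step par (tabs 4) off v := fun _ _ => rfl
attribute [irreducible] stp4
def je5 (v : Nat) : Nat := Nat.land (Nat.shiftRight tJ5 (Nat.mul v 4)) 15
def stp5 (off v : Nat) : Nat := Nat.land (Nat.add (Nat.land (Nat.shiftRight tA5 (Nat.mul v 5)) 31) off) 35
theorem stp5_eq : ∀ off v, stp5 off v = step par (tabs 5) off v := fun _ _ => rfl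
attribute [irreducible] stp5
def je : Nat → Nat → Nat
  | 0 => je0
  | 1 => je1
  | 2 => je2
  | 3 => je3
  | 4 => je4
  | 5 => je5
  | _ => fun _ => 0
def st : Nat → Nat → Nat → Nat
  | 0 => stp0
  | 1 => stp1
  | 2 => stp2
  | 3 => stp3
  | 4 => stp4
  | 5 => stp5
  | _ => fun off v => step par 0 off v
theorem hst : ∀ l off v, st l off v = step par (tabs l) off v := by
  intro l off v
  rcases Nat.lt_or_ge l 6 with h | h
  · interval_cases l
    exacts [stp0_eq off v, stp1_eq off v, stp2_eq off v, stp3_eq off v, stp4_eq off v, stp5_eq off v]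
  · obtain ⟨k, rfl⟩ : ∃ k, l = k + 6 := ⟨l - 6, by omega⟩
    rfl
def lf0_0 : Leaf (walkS st) := ⟨[1], [], 1, 0, (fun off v => (stp1 off v)), (fun _ v => v), (fun _ u _ => u), fun _ _ => rfl, fun _ _ => rfl⟩
def tree0 : RTree (walkS st) :=
  (.node 1 (.fork lf0_0) .tleaf)
def lf1_1 : Leaf (walkS st) := ⟨[0], [], 0, 0, (fun off v => (stp0 off v)), (fun _ v => v), (fun _ u _ => u), fun _ _ => rfl, fun _ _ => rfl⟩
def lf1_2 : Leaf (walkS st) := ⟨[], [0, 0], 18, 1, (fun _ v => v), (fun off v => (stp0 off (stp0 off v))), (fun v _ _ => v), fun _ _ => rfl, fun _ _ => rfl⟩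
def tree1 : RTree (walkS st) :=
  (.node 1 .tleaf (.node 2 (.fork lf1_1) (.fork lf1_2)))
def lf2_0 : Leaf (walkS st) := ⟨[], [], 0, 0, (fun _ v => v), (fun _ v => v), (fun _ _ _ => 1), fun _ _ => rfl, fun _ _ => rfl⟩
def lf2_1 : Leaf (walkS st) := ⟨[], [0, 2, 0], 10, 1, (fun _ v => v), (fun off v => (stp0 off (stp2 off (stp0 off v)))), (fun v _ _ => v), fun _ _ => rfl, fun _ _ => rfl⟩
def lf2_2 : Leaf (walkS st) := ⟨[2], [], 2, 0, (fun off v => (stp2 off v)), (fun _ v => v), (fun _ u _ => u), fun _ _ => rfl, fun _ _ => rfl⟩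
def tree2 : RTree (walkS st) :=
  (.node 1 (.sub lf2_0) (.node 2 (.fork lf2_1) (.fork lf2_2)))
def lf3_0 : Leaf (walkS st) := ⟨[], [], 1, 0, (fun _ v => v), (fun _ v => v), (fun _ _ _ => 1), fun _ _ => rfl, fun _ _ => rfl⟩
def lf3_1 : Leaf (walkS st) := ⟨[], [0, 3, 0], 12, 1, (fun _ v => v), (fun off v => (stp0 off (stp3 off (stp0 off v)))), (fun v _ _ => v), fun _ _ => rfl, fun _ _ => rfl⟩
def lf3_2 : Leaf (walkS st) := ⟨[3], [], 3, 0, (fun off v => (stp3 off v)), (fun _ v => v), (fun _ u _ => u), fun _ _ => rfl, fun _ _ => rfl⟩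
def tree3 : RTree (walkS st) :=
  (.node 1 (.sub lf3_0) (.node 2 (.fork lf3_1) (.fork lf3_2)))
def lf4_0 : Leaf (walkS st) := ⟨[], [], 2, 0, (fun _ v => v), (fun _ v => v), (fun _ _ _ => 1), fun _ _ => rfl, fun _ _ => rfl⟩
def lf4_1 : Leaf (walkS st) := ⟨[], [0, 4, 0], 14, 1, (fun _ v => v), (fun off v => (stp0 off (stp4 off (stp0 off v)))), (fun v _ _ => v), fun _ _ => rfl, fun _ _ => rfl⟩
def lf4_2 : Leaf (walkS st) := ⟨[4], [], 4, 0, (fun off v => (stp4 off v)), (fun _ v => v), (fun _ u _ => u), fun _ _ => rfl, fun _ _ => rfl⟩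
def tree4 : RTree (walkS st) :=
  (.node 1 (.sub lf4_0) (.node 2 (.fork lf4_1) (.fork lf4_2)))
def tree5 : RTree (walkS st) :=
  .tleaf
def trees : Nat → RTree (walkS st)
  | 0 => tree0
  | 1 => tree1
  | 2 => tree2
  | 3 => tree3
  | 4 => tree4
  | 5 => tree5
  | _ => .tleaf
noncomputable def fs0 (v : Nat) : Bool := chkSlot par tA0 je0 pe 2 3 8 (deadF par tA5) (fun _ => 3) tree0 0 v
noncomputable def fs1 (v : Nat) : Bool := chkSlot par tA1 je1 pe 2 3 8 (deadF par tA5) (fun _ => 3) tree1 1 v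
noncomputable def fs2 (v : Nat) : Bool := chkSlot par tA2 je2 pe 2 3 8 (deadF par tA5) (fun _ => 3) tree2 2 v
noncomputable def fs3 (v : Nat) : Bool := chkSlot par tA3 je3 pe 2 3 8 (deadF par tA5) (fun _ => 3) tree3 3 v
noncomputable def fs4 (v : Nat) : Bool := chkSlot par tA4 je4 pe 2 3 8 (deadF par tA5) (fun _ => 3) tree4 4 v
noncomputable def fs5 (v : Nat) : Bool := chkSlot par tA5 je5 pe 2 3 8 (fun _ => true) (fun v => Nat.pred v) tree5 5 v
def gl (k : Nat) : Bool := liveF par tA5 (Nat.succ k)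

end

end Cfsg.Agent.Lib.Helper35.ONNOrd.U1
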